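import Mathlib
import Cfsg.Agent.Lib.Helper6.X32.Defs

/-!
# X32 project (S6002): common facts on `cfix R y` for `y` in the normalizer of `R`
-/

set_option autoImplicit false
open scoped MatrixGroups Matrix
open Cfsg Cfsg.Agent.Lib.Helper6.X32

namespace Cfsg.Agent.Lib.Helper62.X32

universe u

variable {F : Type u} [Field F]

/-- The centralizer of `y` in `R`, as a subgroup. -/
def cent (R : Subgroup (GL4 F)) (y : GL4 F) : Subgroup (GL4 F) :=
  R ⊓ Subgroup.centralizer {y}

theorem mem_cent (R : Subgroup (GL4 F)) (y g : GL4 F) :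
    g ∈ cent R y ↔ g ∈ R ∧ y * g = g * y := by
  unfold cent
  rw [Subgroup.mem_inf, Subgroup.mem_centralizer_iff]
  constructor
  · rintro ⟨h1, h2⟩
    exact ⟨h1, h2 y rfl⟩
  · rintro ⟨h1, h2⟩
    refine ⟨h1, ?_⟩
    intro k hk
    rw [Set.mem_singleton_iff] at hk
    rw [hk]; exact h2

theorem cfix_eq_card_cent (R : Subgroup (GL4 F)) (y : GL4 F) :
    cfix R y = Nat.card (cent R y) := by
  unfold cfix
  exact Nat.card_congr (Equiv.subtypeEquivRight (fun g => (mem_cent R y g).symm))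

theorem cent_le (R : Subgroup (GL4 F)) (y : GL4 F) : cent R y ≤ R := inf_le_left

theorem cfix_dvd (R : Subgroup (GL4 F)) (y : GL4 F) : cfix R y ∣ Nat.card R := by
  rw [cfix_eq_card_cent]
  exact Subgroup.card_dvd_of_le (cent_le R y)

/-- If `y` commutes with all of `R` then `y` is scalar. -/
theorem isScalar_of_cfix (R : Subgroup (GL4 F)) (hR : RFacts R) (y : GL4 F)
    (h : cfix R y = 32) : IsScalar y := by
  have hfin : Finite R := Nat.finite_of_card_ne_zero (by rw [hR.card]; norm_num)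
  have heq : cent R y = R := by
    apply Subgroup.eq_of_le_of_card_ge (cent_le R y)
    rw [← cfix_eq_card_cent, h, hR.card]
  have hc : ∀ g ∈ R, (y : M4 F) * (g : M4 F) = (g : M4 F) * (y : M4 F) := by
    intro g hg
    rw [← heq] at hg
    have h2 := ((mem_cent R y g).mp hg).2
    have h3 := congrArg (fun z : GL4 F => (z : M4 F)) h2
    simpa using h3
  exact hR.commutant _ hc

/-- conjugation by `y` on `R` -/
theorem conj_mem (R : Subgroup (GL4 F)) (y : GL4 F) (hy : y ∈ Cfsg.Geo.subgroupNormalizer R)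
    (g : GL4 F) (hg : g ∈ R) : y * g * y⁻¹ ∈ R := by
  have h1 : y ∈ Subgroup.normalizer (R : Set (GL4 F)) := hy
  exact (Subgroup.mem_normalizer_iff.mp h1 g).mp hg

theorem conj_inv_mem (R : Subgroup (GL4 F)) (y : GL4 F) (hy : y ∈ Cfsg.Geo.subgroupNormalizer R)
    (g : GL4 F) (hg : g ∈ R) : y⁻¹ * g * y ∈ R := by
  have h1 : y ∈ Subgroup.normalizer (R : Set (GL4 F)) := hy
  refine (Subgroup.mem_normalizer_iff.mp h1 _).mpr ?_
  have : y * (y⁻¹ * g * y) * y⁻¹ = g := by group
  rw [this]; exact hg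

/-- The conjugation permutation of `R` induced by `y`. -/
def conjPerm (R : Subgroup (GL4 F)) (y : GL4 F) (hy : y ∈ Cfsg.Geo.subgroupNormalizer R) :
    Equiv.Perm R where
  toFun g := ⟨y * g.1 * y⁻¹, conj_mem R y hy g.1 g.2⟩
  invFun g := ⟨y⁻¹ * g.1 * y, conj_inv_mem R y hy g.1 g.2⟩
  left_inv g := by
    apply Subtype.ext
    show y⁻¹ * (y * g.1 * y⁻¹) * y = g.1
    group
  right_inv g := by
    apply Subtype.ext
    show y * (y⁻¹ * g.1 * y) * y⁻¹ = g.1
    group

theorem conjPerm_pow (R : Subgroup (GL4 F)) (y : GL4 F) (hy : y ∈ Cfsg.Geo.subgroupNormalizer R)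
    (n : ℕ) (g : R) : (((conjPerm R y hy) ^ n) g : GL4 F) = y ^ n * g.1 * (y ^ n)⁻¹ := by
  induction n generalizing g with
  | zero => simp
  | succ n ih =>
    rw [pow_succ, Equiv.Perm.mul_apply, ih]
    show y ^ n * (y * g.1 * y⁻¹) * (y ^ n)⁻¹ = y ^ (n + 1) * g.1 * (y ^ (n + 1))⁻¹
    rw [pow_succ]; group

/-- `cfix R y ≡ |R| mod p` when `y ^ p = 1`. -/
theorem cfix_modEq (R : Subgroup (GL4 F)) (hR : RFacts R) (y : GL4 F)
    (hy : y ∈ Cfsg.Geo.subgroupNormalizer R) (p : ℕ) [hp : Fact p.Prime] (hyp : y ^ p = 1) :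
    cfix R y ≡ 32 [MOD p] := by
  classical
  have hfin : Finite R := Nat.finite_of_card_ne_zero (by rw [hR.card]; norm_num)
  let _ : Fintype R := Fintype.ofFinite R
  have hσ : (conjPerm R y hy) ^ p ^ 1 = 1 := by
    rw [pow_one]
    ext g
    rw [conjPerm_pow, hyp]
    simp
  have h1 := Equiv.Perm.card_compl_support_modEq hσ
  have h2 : Fintype.card R = 32 := by rw [← Nat.card_eq_fintype_card, hR.card]
  rw [h2] at h1
  have h3 : ((conjPerm R y hy).supportᶜ).card = cfix R y := by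
    unfold cfix
    rw [← Nat.card_eq_finsetCard]
    apply Nat.card_congr
    refine ⟨fun z => ⟨z.1.1, z.1.2, ?_⟩, fun z => ⟨⟨z.1, z.2.1⟩, ?_⟩, ?_, ?_⟩
    · have hz := z.2
      rw [Finset.mem_compl, Equiv.Perm.mem_support, not_not] at hz
      have hz2 := congrArg Subtype.val hz
      have hz3 : y * z.1.1 * y⁻¹ = z.1.1 := hz2
      calc y * z.1.1 = y * z.1.1 * y⁻¹ * y := by group
        _ = z.1.1 * y := by rw [hz3]
    · rw [Finset.mem_compl, Equiv.Perm.mem_support, not_not]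
      apply Subtype.ext
      show y * z.1 * y⁻¹ = z.1
      rw [z.2.2]; group
    · intro z; rfl
    · intro z; rfl
  rw [h3] at h1
  exact h1

end Cfsg.Agent.Lib.Helper62.X32
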