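import Mathlib
import Cfsg.Agent.Lib.Helper6.X32.Defs

/-!
# X32 project (S6002): basic facts on frames
-/

set_option autoImplicit false
open scoped MatrixGroups Matrix
open Cfsg Cfsg.Agent.Lib.Helper6.X32

namespace Cfsg.Agent.Lib.Helper62.X32

universe u

variable {F : Type u} [Field F]

/-- In odd characteristic no invertible matrix equals its negative. -/
theorem ne_neg_self (h2 : (2 : F) ≠ 0) (g : GL4 F) : g ≠ -g := by
  intro h
  have h1 : (g : M4 F) = -(g : M4 F) := by
    have := congrArg (fun z : GL4 F => (z : M4 F)) h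
    simpa using this
  have h3 : (2 : F) • (g : M4 F) = 0 := by
    rw [two_smul]
    nth_rewrite 1 [h1]
    exact neg_add_cancel _
  have h4 : (g : M4 F) = 0 := by
    rcases smul_eq_zero.mp h3 with h | h
    · exact absurd h h2
    · exact h
  have h5 : (g : M4 F) * ((g⁻¹ : GL4 F) : M4 F) = 1 := by
    rw [← Units.val_mul, mul_inv_cancel]; rfl
  rw [h4, zero_mul] at h5
  exact zero_ne_one h5

theorem neg_ne_self (h2 : (2 : F) ≠ 0) (g : GL4 F) : -g ≠ g := fun h => ne_neg_self h2 g h.symm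

/-- conjugation commutes with negation -/
theorem conj_neg (y g : GL4 F) : y * (-g) * y⁻¹ = -(y * g * y⁻¹) := by
  rw [mul_neg, neg_mul]

theorem fin5_ne_succ : ∀ i : Fin 5, i ≠ i + 1 := by decide

variable {R : Subgroup (GL4 F)} {h : Fin 5 → GL4 F}

theorem frame_ne_one (h2 : (2 : F) ≠ 0) (hF : Frame R h) (i : Fin 5) : h i ≠ 1 := by
  intro hi
  have hne : i ≠ i + 1 := fin5_ne_succ i
  have h1 := hF.anti i (i + 1) hne
  rw [hi, one_mul, mul_one] at h1
  exact ne_neg_self h2 _ h1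

theorem frame_ne_neg_one (h2 : (2 : F) ≠ 0) (hF : Frame R h) (i : Fin 5) : h i ≠ -1 := by
  intro hi
  have hne : i ≠ i + 1 := fin5_ne_succ i
  have h1 := hF.anti i (i + 1) hne
  rw [hi, neg_mul, one_mul, mul_neg, mul_one, neg_neg] at h1
  exact neg_ne_self h2 _ h1

theorem frame_inj (h2 : (2 : F) ≠ 0) (hF : Frame R h) (i j : Fin 5)
    (hij : h i = h j ∨ h i = -h j) : i = j := by
  by_contra hne
  have h1 := hF.anti i j hne
  rcases hij with hij | hij
  · rw [hij, hF.sq j] at h1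
    exact ne_neg_self h2 _ h1
  · rw [hij, neg_mul, mul_neg, neg_neg, hF.sq j] at h1
    exact neg_ne_self h2 _ h1

/-- powers of `y` permute the frame by powers of `σ` -/
theorem permOf_pow {y : GL4 F} {σ : Equiv.Perm (Fin 5)} (hσ : PermOf h y σ) (n : ℕ) :
    PermOf h (y ^ n) (σ ^ n) := by
  induction n with
  | zero =>
    intro i
    left
    simp
  | succ n ih =>
    intro i
    have e1 : y ^ (n + 1) * h i * (y ^ (n + 1))⁻¹ = y * (y ^ n * h i * (y ^ n)⁻¹) * y⁻¹ := by
      rw [pow_succ']; group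
    have e2 : (σ ^ (n + 1)) i = σ ((σ ^ n) i) := by
      rw [pow_succ']; rfl
    rw [e1, e2]
    rcases ih i with h1 | h1
    · rw [h1]
      exact hσ _
    · rw [h1, conj_neg]
      rcases hσ ((σ ^ n) i) with h3 | h3
      · right; rw [h3]
      · left; rw [h3, neg_neg]

/-- if `y ^ n` is central on the frame then `σ ^ n = 1` -/
theorem perm_pow_eq_one (h2 : (2 : F) ≠ 0) (hF : Frame R h) {y : GL4 F}
    {σ : Equiv.Perm (Fin 5)} (hσ : PermOf h y σ) (n : ℕ)
    (hc : ∀ i, y ^ n * h i * (y ^ n)⁻¹ = h i) : σ ^ n = 1 := by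
  ext i
  have h1 := permOf_pow hσ n i
  rw [hc i] at h1
  have h3 := frame_inj h2 hF i ((σ ^ n) i) h1
  rw [← h3]
  rfl

end Cfsg.Agent.Lib.Helper62.X32
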