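import Mathlib
import Cfsg.Agent.Lib.Helper6.X32.Defs
import Cfsg.Agent.Lib.Helper62.X32.CFix

/-!
# X32 project (S6002): package [N5]
-/

set_option autoImplicit false
open scoped MatrixGroups Matrix
open Cfsg Cfsg.Agent.Lib.Helper6.X32

namespace Cfsg.Agent.Lib.Helper62.X32

universe u

/-- a divisor of 32 is a power of two with exponent at most 5 -/
theorem dvd_32_cases (n : ℕ) (h : n ∣ 32) :
    n = 1 ∨ n = 2 ∨ n = 4 ∨ n = 8 ∨ n = 16 ∨ n = 32 := by
  have h1 : n ≤ 32 := Nat.le_of_dvd (by norm_num) h
  interval_cases n <;> revert h <;> decide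

/-- [N5] elements of order 5 of the normalizer centralize exactly 2 elements of `R`. -/
theorem pkgN5 : PkgN5.{u} := by
  intro F _ R hR y hy h5 hns
  have : Fact (Nat.Prime 5) := ⟨by norm_num⟩
  have hd : cfix R y ∣ 32 := by
    have := cfix_dvd R y
    rwa [hR.card] at this
  have hm : cfix R y ≡ 32 [MOD 5] := cfix_modEq R hR y hy 5 h5
  have h32 : cfix R y ≠ 32 := fun h => hns (isScalar_of_cfix R hR y h)
  unfold Nat.ModEq at hm
  rcases dvd_32_cases _ hd with h | h | h | h | h | h
  · rw [h] at hm; exact absurd hm (by decide)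
  · exact h
  · rw [h] at hm; exact absurd hm (by decide)
  · rw [h] at hm; exact absurd hm (by decide)
  · rw [h] at hm; exact absurd hm (by decide)
  · exact absurd h h32

end Cfsg.Agent.Lib.Helper62.X32
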