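import Mathlib
import Cfsg.Agent.Lib.Helper6.X32.Defs
import Cfsg.Agent.Lib.Helper62.X32.CFix
import Cfsg.Agent.Lib.Helper62.X32.N5
import Cfsg.Agent.Lib.Helper62.X32.FrameBasic

/-!
# X32 project (S6002): package [N3]
-/

set_option autoImplicit false
open scoped MatrixGroups Matrix
open Cfsg Cfsg.Agent.Lib.Helper6.X32

namespace Cfsg.Agent.Lib.Helper62.X32

universe u

/-- [N3] elements of order 3 of the normalizer centralize exactly 8 elements of `R`. -/
theorem pkgN3 : PkgN3.{u} := by
  intro F _ R h hR hF y hy σ hσ h3 hns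
  have h2 := hR.two_ne
  have : Fact (Nat.Prime 3) := ⟨by norm_num⟩
  have hd : cfix R y ∣ 32 := by
    have := cfix_dvd R y
    rwa [hR.card] at this
  have hm : cfix R y ≡ 32 [MOD 3] := cfix_modEq R hR y hy 3 h3
  have h32 : cfix R y ≠ 32 := fun h => hns (isScalar_of_cfix R hR y h)
  -- σ ^ 3 = 1
  have hσ3 : σ ^ 3 ^ 1 = 1 := by
    rw [pow_one]
    apply perm_pow_eq_one h2 hF hσ 3
    intro i
    rw [h3]; simp
  -- a fixed point
  obtain ⟨i, hi⟩ := Equiv.Perm.exists_fixed_point_of_prime (p := 3) (n := 1)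
    (by rw [Fintype.card_fin]; decide) hσ3
  -- y commutes with h i
  have hci : y * h i * y⁻¹ = h i := by
    rcases hσ i with h1 | h1
    · rw [h1, hi]
    · exfalso
      rw [hi] at h1
      have e1 : y ^ 3 * h i * (y ^ 3)⁻¹ = y * (y * (y * h i * y⁻¹) * y⁻¹) * y⁻¹ := by
        rw [pow_succ, pow_succ, pow_one]; group
      rw [h1, conj_neg, h1, neg_neg, h1, h3] at e1
      have e2 : h i = -h i := by simpa using e1
      exact ne_neg_self h2 _ e2
  have hcomm : y * h i = h i * y := by
    calc y * h i = y * h i * y⁻¹ * y := by group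
      _ = h i * y := by rw [hci]
  -- cfix ≠ 2
  have hne2 : cfix R y ≠ 2 := by
    intro hc
    rw [cfix_eq_card_cent] at hc
    have hu := (Nat.card_eq_two_iff' (1 : cent R y)).mp hc
    obtain ⟨z, -, hz⟩ := hu
    have m1 : (-1 : GL4 F) ∈ cent R y := by
      rw [mem_cent]
      refine ⟨hR.negOne, ?_⟩
      rw [mul_neg, neg_mul, mul_one, one_mul]
    have m2 : h i ∈ cent R y := by
      rw [mem_cent]
      exact ⟨hF.mem i, hcomm⟩
    have z1 := hz ⟨-1, m1⟩ (by
      intro hh
      have := congrArg Subtype.val hh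
      exact neg_ne_self h2 1 this)
    have z2 := hz ⟨h i, m2⟩ (by
      intro hh
      have := congrArg Subtype.val hh
      exact frame_ne_one h2 hF i this)
    have z3 : (⟨h i, m2⟩ : cent R y) = ⟨-1, m1⟩ := by rw [z1, z2]
    exact frame_ne_neg_one h2 hF i (congrArg Subtype.val z3)
  unfold Nat.ModEq at hm
  rcases dvd_32_cases _ hd with h | h | h | h | h | h
  · rw [h] at hm; exact absurd hm (by decide)
  · exact absurd h hne2
  · rw [h] at hm; exact absurd hm (by decide)
  · exact h
  · rw [h] at hm; exact absurd hm (by decide)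
  · exact absurd h h32

end Cfsg.Agent.Lib.Helper62.X32
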