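import Mathlib
import Cfsg.Agent.Lib.Helper6.X32.Defs
import Cfsg.Agent.Lib.Helper62.X32.CFix
import Cfsg.Agent.Lib.Helper62.X32.FrameBasic

/-!
# X32 project (S6002): package [PERM]
-/

set_option autoImplicit false
open scoped MatrixGroups Matrix
open Cfsg Cfsg.Agent.Lib.Helper6.X32

namespace Cfsg.Agent.Lib.Helper62.X32

universe u

/-- [PERM] the normalizer of `R` permutes the frame up to sign. -/
theorem pkgPerm : PkgPerm.{u} := by
  intro F _ R h hR hF y hy
  have h2 := hR.two_ne
  -- the image of each frame element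
  have key : ∀ i, ∃ j, y * h i * y⁻¹ = h j ∨ y * h i * y⁻¹ = -h j := by
    intro i
    have hm : y * h i * y⁻¹ ∈ R := conj_mem R y hy (h i) (hF.mem i)
    have hsq : (y * h i * y⁻¹) * (y * h i * y⁻¹) = 1 := by
      have : (y * h i * y⁻¹) * (y * h i * y⁻¹) = y * (h i * h i) * y⁻¹ := by group
      rw [this, hF.sq i]; group
    rcases hF.inv _ hm hsq with h1 | h1 | ⟨j, h1⟩
    · exfalso
      apply frame_ne_one h2 hF i
      calc h i = y⁻¹ * (y * h i * y⁻¹) * y := by group
        _ = 1 := by rw [h1]; group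
    · exfalso
      apply frame_ne_neg_one h2 hF i
      calc h i = y⁻¹ * (y * h i * y⁻¹) * y := by group
        _ = -1 := by rw [h1, mul_neg, mul_one, neg_mul, inv_mul_cancel]
    · exact ⟨j, h1⟩
  choose τ hτ using key
  have hinj : Function.Injective τ := by
    intro i i' hii
    apply frame_inj h2 hF
    have e1 : ∀ k, h k = y⁻¹ * (y * h k * y⁻¹) * y := fun k => by group
    have hc : ∀ g : GL4 F, y⁻¹ * (-g) * y = -(y⁻¹ * g * y) := fun g => by
      rw [mul_neg, neg_mul]
    rcases hτ i with h1 | h1 <;> rcases hτ i' with h3 | h3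
    · left
      rw [e1 i, e1 i', h1, h3, hii]
    · right
      rw [e1 i, e1 i', h1, h3, hii, hc, neg_neg]
    · right
      rw [e1 i, e1 i', h1, h3, hii, hc]
    · left
      rw [e1 i, e1 i', h1, h3, hii]
  have hbij : Function.Bijective τ := Finite.injective_iff_bijective.mp hinj
  exact ⟨Equiv.ofBijective τ hbij, fun i => hτ i⟩

end Cfsg.Agent.Lib.Helper62.X32
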